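import Mathlib
import Cfsg.Agent.BG.S7Aux
import Cfsg.Agent.Core.Baer
import Cfsg.Agent.Comp2.Sig2
import Cfsg.Agent.FGS.NilMax

/-! The transitivity theorem for groups with `p`-constrained `p`-locals. -/

set_option autoImplicit false
set_option linter.unusedVariables false
set_option linter.unusedSectionVars false

namespace Cfsg.Agent.PGrp.Tr

open Cfsg Cfsg.Agent.BG Cfsg.Agent.BG.Amb Cfsg.Agent.BG.S7 Subgroup
open scoped Pointwise commutatorElement

variable {G : Type*} [Group G] [Finite G] {p q : ℕ}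

/-- elements acting trivially on `R / E₀` -/
def stabSec (R E₀ : Subgroup G) [R.Normal] : Subgroup G where
  carrier := {g | ∀ r ∈ R, g * r * g⁻¹ * r⁻¹ ∈ E₀}
  one_mem' := fun r hr => by simpa using E₀.one_mem
  mul_mem' := fun {g h} hg hh r hr => by
    have h1 := hg _ ((inferInstance : R.Normal).conj_mem r hr h)
    have := E₀.mul_mem h1 (hh r hr)
    convert this using 1
    group
  inv_mem' := fun {g} hg r hr => by
    have h1 := hg _ ((inferInstance : R.Normal).conj_mem r hr g⁻¹)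
    have := E₀.inv_mem h1
    convert this using 1
    group

theorem core_bot [Fact p.Prime] (hV : centralizer (pCore p G : Set G) ≤ pCore p G) {E Q : Subgroup G}
    (hE : IsPGroup p E) (hRE : ⁅pCore p G, E⁆ ≤ E) (hC : pCore p G ⊓ centralizer (E : Set G) ≤ E)
    (hQ : (Nat.card Q).Coprime p) (hEQ : E ≤ normalizer (Q : Set G)) : Q = ⊥ := by
  set R := pCore p G with hR
  have hRp : IsPGroup p R := Core.pCore_isPGroup p
  have h0 : Q ⊓ centralizer (E : Set G) = ⊥ := by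
    have hc : (Nat.card (Q ⊓ centralizer (E : Set G) : Subgroup G)).Coprime p :=
      hQ.coprime_dvd_left (card_dvd_of_le inf_le_left)
    have hEQ0 : E ≤ centralizer ((Q ⊓ centralizer (E : Set G) : Subgroup G) : Set G) :=
      le_centralizer_iff.mp inf_le_right
    exact Core.eq_bot_of_le_centralizer_pCore hV hc
      (Core.p_times_q hE hc hRp hEQ0 le_normalizer_of_normal le_normalizer_of_normal (hC.trans hEQ0))
  have hcop : (Nat.card E).Coprime (Nat.card Q) := (Core.coprime_of_isPGroup hE hQ).symm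
  have h1 := Core.commutator_sup_centralizer E Q hEQ hcop (Or.inl (Core.solvable_of_isPGroup hE))
  rw [h0, sup_bot_eq] at h1
  have h2 : Q ≤ centralizer ((R ⊓ E : Subgroup G) : Set G) := by
    intro x hx y hy
    have e1 : ⁅x, y⁆ ∈ Q := by
      have := Core.conj_mem_of_le_normalizer hEQ hy.2 (Q.inv_mem hx)
      rw [commutatorElement_def, mul_assoc, mul_assoc, ← mul_assoc y]
      exact mul_mem hx this
    have e2 : ⁅x, y⁆ ∈ R := by
      rw [commutatorElement_def]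
      exact R.mul_mem ((inferInstance : R.Normal).conj_mem _ hy.1 x) (R.inv_mem hy.1)
    exact (commutatorElement_eq_one_iff_mul_comm.mp
      (Core.eq_one_of_mem_of_coprime (Core.coprime_of_isPGroup hRp hQ) e1 e2)).symm
  have h3 : E ≤ stabSec R (R ⊓ E) := by
    intro e he r hr
    refine ⟨R.mul_mem ((inferInstance : R.Normal).conj_mem r hr e) (R.inv_mem hr), ?_⟩
    have := hRE (commutator_mem_commutator hr he)
    have := E.inv_mem this
    rwa [commutatorElement_inv, commutatorElement_def] at this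
  have h4 : Q ≤ stabSec R (R ⊓ E) := by
    rw [← h1, commutator_le]
    intro x hx e he
    rw [commutatorElement_def]
    refine mul_mem (fun r hr => ?_) (inv_mem (h3 he))
    have a1 := h3 he _ ((inferInstance : R.Normal).conj_mem r hr x⁻¹)
    have a2 := h2 hx _ a1
    have : x * e * x⁻¹ * r * (x * e * x⁻¹)⁻¹ * r⁻¹
        = x * (e * (x⁻¹ * r * x⁻¹⁻¹) * e⁻¹ * (x⁻¹ * r * x⁻¹⁻¹)⁻¹) * x⁻¹ := by group
    rw [this, ← a2, mul_inv_cancel_right]
    exact a1
  have h5 : ⁅R, Q⁆ ≤ R ⊓ E := by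
    rw [commutator_comm, commutator_le]
    intro x hx r hr
    exact h4 hx r hr
  exact Core.eq_bot_of_le_centralizer_pCore hV hQ
    (Core.le_centralizer_of_commutator_le_of_centralizes Q R (R ⊓ E)
      (Core.coprime_of_isPGroup (hRp.to_le inf_le_left) hQ) h2 h5)

theorem signalizer_class_two [hp : Fact p.Prime] (hG : IsPConstrained p G)
    (hcl : ∀ T : Subgroup G, IsPGroup p T → ∀ x ∈ T, ∀ y ∈ T, ⁅x, y⁆ ∈ centralizer (T : Set G))
    {E Q : Subgroup G} (hE : IsPGroup p E)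
    (hΩ : ∀ x ∈ centralizer (E : Set G), IsPGroup p (zpowers x) → x ∈ E) (hQ : (Nat.card Q).Coprime p)
    (hEQ : E ≤ normalizer (Q : Set G)) : Q ≤ pPrimeCore p G := by
  set N := pPrimeCore p G with hN
  set f := QuotientGroup.mk' N with hf
  have hcA : (Nat.card E).Coprime (Nat.card N) := Core.coprime_pPrimeCore_of_isPGroup hE
  have hV := Core.isPConstrained_iff.mp hG
  have hQ' : (Nat.card (Q.map f)).Coprime p := hQ.coprime_dvd_left (card_map_dvd Q f)
  have hco : (Nat.card N).Coprime p := Core.pPrimeCore_coprime p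
  have hC : pCore p (G ⧸ N) ⊓ centralizer (E.map f : Set (G ⧸ N)) ≤ E.map f := by
    rintro x ⟨hxV, hxA⟩
    rw [Core.centralizer_map_mk' E N hcA (Or.inl (Core.solvable_of_isPGroup hE))] at hxA
    obtain ⟨y, hy, rfl⟩ := hxA
    obtain ⟨k, hk⟩ := Core.pCore_isPGroup p (G := G ⧸ N) ⟨_, hxV⟩
    have hxp : f y ^ p ^ k = 1 := congrArg Subtype.val hk
    have hyN : y ^ p ^ k ∈ N := by
      rw [← map_pow] at hxp
      exact (QuotientGroup.eq_one_iff _).mp hxp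
    have hz : (y ^ Nat.card N) ^ p ^ k = 1 := by
      rw [← pow_mul, mul_comm, pow_mul]
      exact orderOf_dvd_iff_pow_eq_one.mp (N.orderOf_dvd_natCard hyN)
    have hzA : y ^ Nat.card N ∈ E := by
      refine hΩ _ (pow_mem hy _) ?_
      obtain ⟨j, -, hj⟩ := (Nat.dvd_prime_pow hp.out).mp (orderOf_dvd_of_pow_eq_one hz)
      exact IsPGroup.of_card (by rw [Nat.card_zpowers, hj])
    obtain ⟨m, hm⟩ := exists_pow_eq_self_of_coprime (x := f y) (n := Nat.card N)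
      ((hco.pow_right k).coprime_dvd_right (orderOf_dvd_of_pow_eq_one hxp))
    rw [← hm, ← map_pow f y]
    exact pow_mem (mem_map_of_mem f hzA) m
  have hRE : ⁅pCore p (G ⧸ N), E.map f⁆ ≤ E.map f := by
    obtain ⟨S, hS⟩ := hE.exists_le_sylow
    have hRS : pCore p (G ⧸ N) ≤ (S : Subgroup G).map f := by
      have := (Core.pCore_isPGroup p (G := G ⧸ N)).le_sylow_of_normal
        (S.mapSurjective (QuotientGroup.mk'_surjective N))
      exact this
    refine le_trans (le_inf (commutator_le_left _ _) ?_) hC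
    rw [commutator_le]
    rintro x hx _ ⟨e, he, rfl⟩
    obtain ⟨s, hs, rfl⟩ := hRS hx
    rw [← map_commutatorElement]
    rintro _ ⟨e', he', rfl⟩
    rw [← map_mul, ← map_mul, hcl S S.isPGroup' s hs e (hS he) e' (hS he')]
  have h2 := core_bot hV (hE.map f) hRE hC hQ' (Core.map_le_normalizer_map hEQ f)
  rwa [Subgroup.map_eq_bot_iff, QuotientGroup.ker_mk'] at h2

/-- The local signalizer hypothesis. -/
def Loc (p : ℕ) (E : Subgroup G) : Prop :=
  ∀ u ∈ E, u ≠ 1 → ∀ Y : Subgroup G, Y ≤ 𝐍(zpowers u) → IsPiSubgroup {p}ᶜ Y → E ≤ 𝐍(Y) →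
    Y ≤ piCoreOf {p}ᶜ 𝐍(zpowers u)

theorem loc_of [hp : Fact p.Prime]
    (hloc : ∀ T : Subgroup G, IsPGroup p T → T ≠ ⊥ → IsPConstrained p ↥(normalizer (T : Set G)))
    (h2 : p = 2 → ∀ S : Sylow p G, Group.IsNilpotent (S : Subgroup G) ∧
      Group.nilpotencyClass (S : Subgroup G) ≤ 2)
    {E : Subgroup G} (hEp : IsPGroup p E) (hEc : IsMulCommutative E)
    (hEfull : ∀ x ∈ centralizer (E : Set G), IsPGroup p (zpowers x) → x ∈ E) : Loc p E := by
  intro u hu hu1 Y hY hYp hEY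
  set H := 𝐍(zpowers u) with hH
  have huE : zpowers u ≤ E := zpowers_le.mpr hu
  have hEH : E ≤ H := le_norm_of_le_cent (le_cent_of_comm hEc le_rfl huE)
  have hc := hloc (zpowers u) (hEp.to_le huE) (by simpa using hu1)
  have hEp' : IsPGroup p (E.subgroupOf H) := hEp.comap_of_injective _ (subtype_injective _)
  have hY' : (Nat.card (Y.subgroupOf H)).Coprime p := by
    rw [Core.card_subgroupOf_of_le hY]
    exact coprime_prime_of_pi hp.out hYp
  have hn := Core.subgroupOf_le_normalizer_subgroupOf hEY H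
  have hfull : ∀ x ∈ centralizer ((E.subgroupOf H : Subgroup H) : Set H), IsPGroup p (zpowers x) →
      x ∈ E.subgroupOf H := by
    intro x hx hxp
    refine hEfull x (fun e he => congrArg Subtype.val (hx ⟨e, hEH he⟩ he)) ?_
    have := hxp.map H.subtype
    rwa [MonoidHom.map_zpowers] at this
  have key : Y.subgroupOf H ≤ pPrimeCore p H := by
    by_cases hp2 : p = 2
    · refine signalizer_class_two hc ?_ hEp' hfull hY' hn
      intro T hT x hx y hy z hz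
      obtain ⟨S, hS⟩ := (hT.map H.subtype).exists_le_sylow
      obtain ⟨h3, h4⟩ := h2 hp2 S
      have := FGS.commutator_mem_centralizer_of_class h4 _ (hS (mem_map_of_mem _ hx)) _
        (hS (mem_map_of_mem _ hy)) _ (hS (mem_map_of_mem _ hz))
      exact Subtype.ext this
    · refine Core.thompson_bender hp2 hc hEp' (fun x hx ho => hfull x hx ?_) hY' hn
      exact IsPGroup.of_card (n := 1) (by rw [Nat.card_zpowers, ho, pow_one])
  rw [Core.pPrimeCore_eq_piCore, Core.piCore_congr (ρ := {p}ᶜ) (fun r hr => by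
    simp [Nat.prime_dvd_prime_iff_eq hr hp.out])] at key
  calc Y = (Y.subgroupOf H).map H.subtype := by
        rw [subgroupOf_map_subtype, inf_eq_left.mpr hY]
    _ ≤ _ := map_mono key

theorem Loc.mem_K [hp : Fact p.Prime] {E : Subgroup G} (h : Loc p E) (hEc : IsMulCommutative E)
    (hne : E ≠ ⊥) {Y : Subgroup G} (hY : Y ≤ 𝐂(E)) (hYp : IsPiSubgroup {p}ᶜ Y) :
    Y ≤ piCoreOf {p}ᶜ 𝐂(E) := by
  obtain ⟨⟨u, hu⟩, hu1⟩ := ne_bot_iff_exists_ne_one.mp hne
  have huE : zpowers u ≤ E := zpowers_le.mpr hu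
  have hCH : 𝐂(E) ≤ 𝐍(zpowers u) := (cent_anti huE).trans (cent_le_norm _)
  exact le_core_of_le_core hCH (h u hu (fun e => hu1 (Subtype.ext e)) Y (hY.trans hCH) hYp
    (le_norm_of_le_cent (le_cent_symm hY))) hY

theorem Loc.meet [hp : Fact p.Prime] [Fact q.Prime] (hqp : q ≠ p) {E : Subgroup G} (h : Loc p E)
    (hEp : IsPGroup p E) (hEc : IsMulCommutative E) (hE3 : ¬ PRankLE p 2 E) :
    ∀ (n : ℕ) (Q₁ Q₂ : Subgroup G), Q₁ ∈ maxInvSubgroups ⊤ E {q} → Q₂ ∈ maxInvSubgroups ⊤ E {q} →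
      Nat.card G - Nat.card ↥(Q₁ ⊓ Q₂) ≤ n →
      ∃ k ∈ piCoreOf {p}ᶜ 𝐂(E), Q₂ = MulAut.conj k • Q₁ := by
  obtain ⟨A, hAE, hA, hA3⟩ := Rank.not_pRankLE_iff.mp hE3
  have hEne : E ≠ ⊥ := by
    rintro rfl
    rw [le_bot_iff.mp hAE, card_bot] at hA3
    exact absurd hA3.symm (Nat.one_lt_pow (by norm_num) hp.out.one_lt).ne'
  intro n
  induction n using Nat.strong_induction_on with
  | _ n ih =>
  intro Q₁ Q₂ h₁ h₂ hn
  by_cases e1 : Q₁ ≤ Q₂
  · exact ⟨1, one_mem _, by rw [conj_one]; exact h₁.2 Q₂ h₂.1 e1⟩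
  by_cases e2 : Q₂ ≤ Q₁
  · exact ⟨1, one_mem _, by rw [conj_one]; exact (h₂.2 Q₁ h₁.1 e2).symm⟩
  have p1 := maxInv_pgroup h₁
  have p2 := maxInv_pgroup h₂
  set D := Q₁ ⊓ Q₂ with hD
  have pD : IsPGroup q D := isPGroup_mono p1 inf_le_left
  have nD : E ≤ 𝐍(D) := le_norm_inf (maxInv_norm h₁) (maxInv_norm h₂)
  have l1 : D < Q₁ ⊓ 𝐍(D) :=
    lt_inf_normalizer_of_nilpotent (nil_of_pgroup p1) (inf_lt_left.mpr e1)
  have l2 : D < Q₂ ⊓ 𝐍(D) :=
    lt_inf_normalizer_of_nilpotent (nil_of_pgroup p2) (inf_lt_right.mpr e2)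
  have n1 : E ≤ 𝐍(Q₁ ⊓ 𝐍(D)) := le_norm_inf (maxInv_norm h₁) (le_norm_norm nD)
  have n2 : E ≤ 𝐍(Q₂ ⊓ 𝐍(D)) := le_norm_inf (maxInv_norm h₂) (le_norm_norm nD)
  have q1 : IsPGroup q ↥(Q₁ ⊓ 𝐍(D)) := isPGroup_mono p1 inf_le_left
  have q2 : IsPGroup q ↥(Q₂ ⊓ 𝐍(D)) := isPGroup_mono p2 inf_le_left
  obtain ⟨u, hu, hu1, a1, a2⟩ := Comp2.exists_mem_not_le_two (L₁ := D) (L₂ := D) hA hA3.ge
    (hAE.trans n1) (hAE.trans n2) (Comp2.not_dvd_card_of_isPGroup hqp q1)
    (Comp2.not_dvd_card_of_isPGroup hqp q2) l1.not_ge l2.not_ge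
  rw [← cent_zpowers] at a1 a2
  have huE : zpowers u ≤ E := zpowers_le.mpr (hAE hu)
  have hEC : E ≤ 𝐂(zpowers u) := le_cent_of_comm hEc le_rfl huE
  have hEH : E ≤ 𝐍(zpowers u) := hEC.trans (cent_le_norm _)
  set O := piCoreOf {p}ᶜ 𝐍(zpowers u) with hO
  set L := O ⊓ 𝐍(D) with hL
  set K := D ⊔ L with hK
  have hKp : IsPiSubgroup {p}ᶜ K :=
    pi_sup (pi_compl_of_pgroup pD hqp) (pi_mono (core_pi _ _) inf_le_left) inf_le_right
  have nK : E ≤ 𝐍(K) :=
    le_norm_sup nD (le_norm_inf (hEH.trans (self_le_norm_core _ _)) (le_norm_norm nD))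
  have hc : (Nat.card E).Coprime (Nat.card K) := (coprime_of_pgroup hKp hEp).symm
  have hs : Group.IsSolvable E ∨ Group.IsSolvable K := Or.inl (solv_of_pgroup hEp)
  have aux : ∀ Q : Subgroup G, IsPGroup q Q → D ≤ Q → E ≤ 𝐍(Q) →
      ¬ Q ⊓ 𝐍(D) ⊓ 𝐂(zpowers u) ≤ D →
      ∃ R : Subgroup G, IsSylowOf q R K ∧ E ≤ 𝐍(R) ∧ D < Q ⊓ R := by
    intro Q hQ hDQ nQ hnot
    set P := Q ⊓ 𝐍(D) ⊓ 𝐂(zpowers u) with hP
    have nP : E ≤ 𝐍(P) := le_norm_inf (le_norm_inf nQ (le_norm_norm nD)) (le_norm_of_le hEC)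
    have hPQ : P ≤ Q := inf_le_left.trans inf_le_left
    have hPO : P ≤ O := h u (hAE hu) hu1 P (inf_le_right.trans (cent_le_norm _))
      (pi_compl_of_pgroup (isPGroup_mono hQ hPQ) hqp) nP
    have hPL : P ≤ L := le_inf hPO (inf_le_left.trans inf_le_right)
    obtain ⟨R, hR, nR, hle⟩ := exists_inv_sylow_ge (q := q) (Q := D ⊔ P) nK hc hs
      (isPGroup_mono hQ (sup_le hDQ hPQ)) (sup_le_sup_left hPL D) (le_norm_sup nD nP)
    refine ⟨R, hR, nR, lt_of_lt_of_le ?_ (le_inf (sup_le hDQ hPQ) hle)⟩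
    exact left_lt_sup.mpr hnot
  obtain ⟨R₁, hR₁, nR₁, b1⟩ := aux Q₁ p1 inf_le_left (maxInv_norm h₁) a1
  obtain ⟨R₂, hR₂, nR₂, b2⟩ := aux Q₂ p2 inf_le_right (maxInv_norm h₂) a2
  obtain ⟨k, hk, e⟩ := inv_sylow_conj nK hc hs hR₁ hR₂ nR₁ nR₂
  have hkK : k ∈ piCoreOf {p}ᶜ 𝐂(E) :=
    h.mem_K hEc hEne inf_le_right (pi_mono hKp inf_le_left) hk
  have hkN : k ∈ 𝐍(E) := cent_le_norm _ hk.2
  obtain ⟨Q, hQ, hRQ⟩ := exists_maxInv_ge' (sylow_isPGroup hR₂) nR₂
  have c1 := Core.card_lt_of_lt b1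
  have c2 := Core.card_lt_of_lt b2
  have d1 : MulAut.conj k • (Q₁ ⊓ R₁) ≤ MulAut.conj k • Q₁ ⊓ Q :=
    le_inf (conj_mono k inf_le_left) ((conj_mono k inf_le_right).trans (e ▸ hRQ))
  have d2 : Q₂ ⊓ R₂ ≤ Q ⊓ Q₂ := le_inf (inf_le_right.trans hRQ) inf_le_left
  have f1 := card_le_of_le d1
  rw [card_conj] at f1
  have f2 := card_le_of_le d2
  have g1 := (MulAut.conj k • Q₁ ⊓ Q).card_le_card_group
  have g2 := (Q ⊓ Q₂).card_le_card_group
  obtain ⟨k₁, hk₁, i1⟩ := ih (Nat.card G - Nat.card ↥(MulAut.conj k • Q₁ ⊓ Q)) (by omega) _ _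
    (maxInv_conj hkN h₁) hQ le_rfl
  obtain ⟨k₂, hk₂, i2⟩ := ih (Nat.card G - Nat.card ↥(Q ⊓ Q₂)) (by omega) _ _ hQ h₂ le_rfl
  exact ⟨k₂ * (k₁ * k), mul_mem hk₂ (mul_mem hk₁ hkK),
    by rw [i2, i1, conj_conj, conj_conj, mul_assoc]⟩

end Cfsg.Agent.PGrp.Tr
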