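import Mathlib
import Cfsg.Agent.PGrp.IndexP
import Cfsg.Agent.PGrp.MaxClass2
import Cfsg.Agent.BG.AmbCent
import Cfsg.Agent.Core.MinNormal

/-! The order of the derived subgroup of a `p`-group in terms of the sizes of its classes. -/

set_option autoImplicit false

namespace Cfsg.Agent.PGrp.Wieg

open Subgroup Cfsg.Agent.BG
open scoped commutatorElement

universe u

variable {p : ℕ}

section
variable {G : Type*} [Group G]

theorem exists_notMem_two {C D₁ D₂ : Subgroup G} (h1 : ¬ C ≤ D₁) (h2 : ¬ C ≤ D₂) :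
    ∃ g ∈ C, g ∉ D₁ ∧ g ∉ D₂ := by
  obtain ⟨x, hx, hx1⟩ := SetLike.not_le_iff_exists.1 h1
  obtain ⟨y, hy, hy2⟩ := SetLike.not_le_iff_exists.1 h2
  by_cases hx2 : x ∈ D₂
  · by_cases hy1 : y ∈ D₁
    · exact ⟨x * y, mul_mem hx hy, fun h => hx1 ((mul_mem_cancel_right hy1).1 h),
        fun h => hy2 ((mul_mem_cancel_left hx2).1 h)⟩
    · exact ⟨y, hy, hy1, hy2⟩
  · exact ⟨x, hx, hx1, hx2⟩

/-- The elements of `C` that are central modulo the derived subgroup of `C`. -/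
def cm (C : Subgroup G) [C.Normal] : Subgroup G :=
  (center (G ⧸ ⁅C, C⁆)).comap (QuotientGroup.mk' _)

theorem comm_map (C : Subgroup G) [C.Normal] :
    IsMulCommutative (C.map (QuotientGroup.mk' ⁅C, C⁆)) := by
  rw [← Amb.der_eq_bot_iff, ← map_commutator, Subgroup.map_eq_bot_iff, QuotientGroup.ker_mk']

theorem map_sup_top (hp : p.Prime) {C : Subgroup G} [C.Normal] (hC : C.index = p) {a : G}
    (ha : a ∉ C) : C.map (QuotientGroup.mk' ⁅C, C⁆) ⊔ zpowers (QuotientGroup.mk' ⁅C, C⁆ a) = ⊤ := by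
  rw [← MonoidHom.map_zpowers, ← Subgroup.map_sup, sup_zpowers_eq_top_of_index_prime hp hC ha,
    map_top_of_surjective _ (QuotientGroup.mk'_surjective _)]

theorem mem_cm (hp : p.Prime) {C : Subgroup G} [C.Normal] (hC : C.index = p) {a g : G}
    (ha : a ∉ C) (hg : g ∈ C) (h : a ∈ 𝐂[g]) : g ∈ cm C := by
  have h1 : (⊤ : Subgroup (G ⧸ ⁅C, C⁆)) ≤ 𝐂[QuotientGroup.mk' ⁅C, C⁆ g] := by
    rw [← map_sup_top hp hC ha]
    refine sup_le ((Amb.comm_le_cent (comm_map C)).trans (Amb.cent_le_cent1 ⟨g, hg, rfl⟩))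
      (zpowers_le.2 ?_)
    rw [Amb.mem_cent1, ← map_mul, ← map_mul, Amb.mem_cent1.1 h]
  exact mem_center_iff.2 fun x => Amb.mem_cent1.1 (h1 (mem_top x))

theorem index_eq_of_notMem_cm (hp : p.Prime) {C : Subgroup G} [C.Normal] (hC : C.index = p) {g : G}
    (hg : g ∈ C) (h : g ∉ cm C) : 𝐂[g].index = 𝐂[g].relIndex C * p := by
  rw [← hC, relIndex_mul_index]
  intro a ha
  by_contra haC
  exact h (mem_cm hp hC haC hg ha)

variable [Finite G]

theorem relIndex_le_index (H K : Subgroup G) : H.relIndex K ≤ H.index := by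
  rw [← relIndex_top_right]
  exact relIndex_le_of_le_right le_top (by simp [index_ne_zero_of_finite])

theorem card_commutator (hp : p.Prime) {C : Subgroup G} [C.Normal] (hC : C.index = p) :
    Nat.card (commutator G) = Nat.card ↥⁅C, C⁆ * (cm C).relIndex C := by
  obtain ⟨a, -, ha⟩ := SetLike.not_le_iff_exists.1 (show ¬ ⊤ ≤ C from fun h => by
    rw [top_le_iff.1 h, index_top] at hC
    exact hp.one_lt.ne hC)
  haveI : (C.map (QuotientGroup.mk' ⁅C, C⁆)).Normal :=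
    Normal.map inferInstance _ (QuotientGroup.mk'_surjective _)
  have h1 := card_eq_card_centralizer_mul_card_commutator (comm_map C) (map_sup_top hp hC ha)
  have h2 := Core.card_inf_mul_relIndex (center (G ⧸ ⁅C, C⁆)) (C.map (QuotientGroup.mk' ⁅C, C⁆))
  rw [h1, inf_comm] at h2
  rw [cm, relIndex_comap, Nat.eq_of_mul_eq_mul_left Nat.card_pos h2, ← Core.card_comap_mk',
    ← map_commutator_mk', comap_map_eq, QuotientGroup.ker_mk',
    sup_eq_left.2 (show ⁅C, C⁆ ≤ commutator G from commutator_mono le_top le_top)]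

theorem relIndex_cm_le (hp : p.Prime) {C : Subgroup G} [C.Normal] (hC : C.index = p) {a : G}
    (ha : a ∉ C) : (cm C).relIndex C ≤ 𝐂[a].index := by
  refine le_trans ?_ (relIndex_le_index 𝐂[a] C)
  rw [← inf_relIndex_right 𝐂[a] C]
  exact relIndex_le_of_le_left (fun g hg => mem_cm hp hC ha hg.2 (Amb.mem_cent1_comm.1 hg.1))
    (by simp [relIndex, index_ne_zero_of_finite])

variable [hp : Fact p.Prime]

theorem exists_relIndex_eq (hG : IsPGroup p G) (H K : Subgroup G) : ∃ k, H.relIndex K = p ^ k := by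
  obtain ⟨n, hn⟩ := exists_card_eq_pow hG K
  obtain ⟨k, -, hk⟩ := (Nat.dvd_prime_pow hp.out).1 (hn ▸ Core.relIndex_dvd_card' H K)
  exact ⟨k, hk⟩

theorem index_le_of_not_le (hG : IsPGroup p G) {H : Subgroup G} {m : ℕ}
    (h : ¬ p ^ (m + 1) ≤ H.index) : H.index ≤ p ^ m := by
  obtain ⟨k, hk⟩ := exists_relIndex_eq hG H ⊤
  rw [relIndex_top_right] at hk
  rw [hk, pow_le_pow_iff_right₀ hp.out.one_lt] at h ⊢
  omega

theorem exists_third (hG : IsPGroup p G) {M₁ M₂ : Subgroup G} (h₁ : M₁.index = p)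
    (h₂ : M₂.index = p) (hne : ¬ M₂ ≤ M₁) {c : G} (hc₁ : c ∉ M₁) (hc₂ : c ∉ M₂) :
    ∃ C : Subgroup G, C.index = p ∧ c ∈ C ∧ C ⊓ M₂ ≤ M₁ := by
  haveI := normal_of_index_eq_prime hG h₁
  haveI := normal_of_index_eq_prime hG h₂
  have h1 : (M₁ ⊓ M₂).relIndex (M₁ ⊓ M₂ ⊔ zpowers c) = p :=
    relIndex_sup_zpowers hp.out (le_normalizer_of_normal (mem_top c))
      ⟨h₁ ▸ M₁.pow_index_mem c, h₂ ▸ M₂.pow_index_mem c⟩ fun h => hc₁ h.1
  have h2 : M₁.relIndex M₂ = p := by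
    refine ((Nat.dvd_prime hp.out).1 (h₁ ▸ relIndex_dvd_index_of_normal M₁ M₂)).resolve_left ?_
    rwa [relIndex_eq_one]
  refine ⟨M₁ ⊓ M₂ ⊔ zpowers c, ?_, mem_sup_right (mem_zpowers c), ?_⟩
  · have h3 := relIndex_mul_index (le_sup_left : M₁ ⊓ M₂ ≤ M₁ ⊓ M₂ ⊔ zpowers c)
    rw [h1, ← relIndex_mul_index (inf_le_right : M₁ ⊓ M₂ ≤ M₂), inf_relIndex_right, h2, h₂] at h3
    exact Nat.eq_of_mul_eq_mul_left hp.out.pos h3
  · rcases eq_or_eq_of_relIndex_prime hp.out h1 (le_inf le_sup_left inf_le_right)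
      (inf_le_left (b := M₂)) with e | e
    · exact e.le.trans inf_le_left
    · exact absurd (e.ge (mem_sup_right (mem_zpowers c))).2 hc₂

theorem exists_choice (hG : IsPGroup p G) (hna : commutator G ≠ ⊥) {H₁ H₂ : Subgroup G}
    (h₁ : H₁.index = p) (h₂ : H₂ ≠ ⊤) (h : p ≠ 2 ∨ H₂ ≤ H₁ ∨ 2 < H₂.index) :
    ∃ (C : Subgroup G) (a : G), C.index = p ∧ ¬ C ≤ H₁ ∧ C ⊓ H₂ ≤ H₁ ∧ a ∉ C ∧ a ∉ H₁ ∧ a ∉ H₂ := by
  have hne : ∀ {M : Subgroup G}, M.index = p → ¬ ⊤ ≤ M := fun hM h => by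
    rw [top_le_iff.1 h, index_top] at hM
    exact hp.out.one_lt.ne hM
  by_cases h21 : H₂ ≤ H₁
  · obtain ⟨c, -, hc⟩ := SetLike.not_le_iff_exists.1 (hne h₁)
    have hc1 : zpowers c ≠ ⊤ := fun e => hna (by
      rw [commutator_def, ← e]
      exact Amb.der_eq_bot_iff.2 inferInstance)
    obtain ⟨C, -, hC, hcC⟩ := exists_normal_index_prime_ge hG hc1
    obtain ⟨a, -, ha, ha1⟩ := exists_notMem_two (hne hC) (hne h₁)
    exact ⟨C, a, hC, fun h => hc (h (hcC (mem_zpowers c))), inf_le_right.trans h21, ha, ha1,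
      fun h => ha1 (h21 h)⟩
  obtain ⟨M, -, hM, hHM⟩ := exists_normal_index_prime_ge hG h₂
  have hM1 : ¬ M ≤ H₁ := fun h => h21 (hHM.trans h)
  by_cases hM2 : M ≤ H₂
  · have hp2 : p ≠ 2 := by
      rintro rfl
      rw [le_antisymm hHM hM2, hM] at h
      simp [hM1] at h
    haveI := normal_of_index_eq_prime hG h₁
    haveI := normal_of_index_eq_prime hG hM
    have h1M : ¬ H₁ ≤ M := fun h => by
      rcases eq_or_eq_top_of_index_prime hp.out h₁ h with e | e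
      · exact hM1 e.le
      · exact hne hM e.ge
    obtain ⟨x, hx, hxM⟩ := SetLike.not_le_iff_exists.1 h1M
    obtain ⟨y, hy, hy1⟩ := SetLike.not_le_iff_exists.1 hM1
    obtain ⟨C, hC, hc, hCM⟩ := exists_third hG h₁ hM hM1 (c := x * y)
      (fun h => hy1 ((mul_mem_cancel_left hx).1 h)) (fun h => hxM ((mul_mem_cancel_right hy).1 h))
    refine ⟨C, x * y⁻¹, hC, fun h => hy1 ((mul_mem_cancel_left hx).1 (h hc)),
      (inf_le_inf_left C hHM).trans hCM, fun h => hy1 ?_,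
      fun h => hy1 (inv_mem_iff.1 ((mul_mem_cancel_left hx).1 h)),
      fun h => hxM ((mul_mem_cancel_right (inv_mem hy)).1 (hHM h))⟩
    have h3 : y ^ 2 ∈ H₁ := hCM ⟨by
      have := mul_mem (inv_mem h) hc
      rwa [show (x * y⁻¹)⁻¹ * (x * y) = y ^ 2 by rw [pow_two]; group] at this, pow_mem hy 2⟩
    exact mem_of_pow_mem_of_coprime ((Nat.coprime_primes Nat.prime_two hp.out).2 hp2.symm) h3
      (h₁ ▸ H₁.pow_index_mem y)
  · obtain ⟨c, -, hc1, hc2⟩ := exists_notMem_two (hne h₁) (hne hM)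
    obtain ⟨C, hC, hc, hCM⟩ := exists_third hG h₁ hM hM1 hc1 hc2
    obtain ⟨a, ha, ha1, ha2⟩ := exists_notMem_two hM1 hM2
    exact ⟨C, a, hC, fun h => hc1 (h hc), (inf_le_inf_left C hHM).trans hCM,
      fun h => ha1 (hCM ⟨h, ha⟩), ha1, ha2⟩

end

/-- Triangular numbers. -/
def tri : ℕ → ℕ
  | 0 => 0
  | n + 1 => tri n + n

theorem tri_succ (b : ℕ) : tri (b + 1) = b * (b + 1) / 2 := by
  have : ∀ b, 2 * tri (b + 1) = b * (b + 1) := fun b => by
    induction b with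
    | zero => rfl
    | succ b ih => rw [tri, mul_add, ih]; ring
  rw [← this, Nat.mul_div_cancel_left _ two_pos]

/-- The inductive statement. -/
def Q (p n : ℕ) (G : Type*) [Group G] : Prop :=
  ∀ H₁ H₂ : Subgroup G, H₁ ≠ ⊤ → H₂ ≠ ⊤ → (p ≠ 2 ∨ H₂ ≤ H₁ ∨ 2 < H₂.index) →
    (∀ g : G, p ^ n ≤ 𝐂[g].index → g ∈ H₁ ∨ g ∈ H₂) → Nat.card (commutator G) ≤ p ^ tri n

theorem cent_coe {G : Type*} [Group G] {C : Subgroup G} (g : C) :
    𝐂[g].index = 𝐂[(g : G)].relIndex C := by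
  congr 1
  ext x
  simp only [mem_subgroupOf, Amb.mem_cent1, Subtype.ext_iff, coe_mul]

theorem card_der {G : Type*} [Group G] (C : Subgroup G) :
    Nat.card (commutator C) = Nat.card ↥⁅C, C⁆ := by
  rw [← Core.map_commutator_subtype, Core.card_map_subtype]

theorem Q.sub {G : Type*} [Group G] {C : Subgroup G} {n : ℕ} (h : Q p n C) {D₁ D₂ : Subgroup G}
    (h1 : ¬ C ≤ D₁) (h2 : ¬ C ≤ D₂) (h3 : p ≠ 2 ∨ C ⊓ D₂ ≤ D₁ ∨ 2 < D₂.relIndex C)
    (h4 : ∀ g ∈ C, p ^ n ≤ 𝐂[g].relIndex C → g ∈ D₁ ∨ g ∈ D₂) :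
    Nat.card ↥⁅C, C⁆ ≤ p ^ tri n := by
  rw [← card_der]
  exact h (D₁.subgroupOf C) (D₂.subgroupOf C) (by rwa [Ne, subgroupOf_eq_top])
    (by rwa [Ne, subgroupOf_eq_top])
    (h3.imp_right (Or.imp_left fun h g hg => h ⟨g.2, hg⟩))
    fun g hg => h4 g g.2 (cent_coe g ▸ hg)

theorem two_step {G : Type u} [Group G] [Finite G] (hG : IsPGroup 2 G)
    (ih : ∀ C : Subgroup G, C ≠ ⊤ → ∀ n, Q 2 n C) {m : ℕ} {H₁ H₂ : Subgroup G}
    (h₁ : H₁.index = 2) (h₂ : H₂.index = 2) (hne : ¬ H₂ ≤ H₁)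
    (hm : ∀ g : G, 2 ^ (m + 1) ≤ 𝐂[g].index → g ∈ H₁ ∨ g ∈ H₂)
    (hm' : ∀ g : G, 2 ^ (m + 2) ≤ 𝐂[g].index → g ∈ H₁) :
    Nat.card (commutator G) * 2 ≤ 2 ^ tri (m + 2) := by
  have hne' : ∀ {M : Subgroup G}, M.index = 2 → ¬ ⊤ ≤ M := fun hM h => by
    rw [top_le_iff.1 h, index_top] at hM
    omega
  obtain ⟨c, -, hc1, hc2⟩ := exists_notMem_two (hne' h₁) (hne' h₂)
  obtain ⟨E, hE, hc, hE2⟩ := exists_third hG h₁ h₂ hne hc1 hc2
  haveI := normal_of_index_eq_prime hG hE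
  have hE1 : ¬ E ≤ H₁ := fun h => hc1 (h hc)
  have ihE := ih E fun e => hne' hE e.ge
  obtain ⟨a, ha2, ha1⟩ := SetLike.not_le_iff_exists.1 hne
  have hd := (relIndex_cm_le Nat.prime_two hE fun h => ha1 (hE2 ⟨h, ha2⟩)).trans
    (index_le_of_not_le hG fun h => ha1 (hm' a h))
  have hm1 : ∀ g ∈ E, 2 ^ (m + 1) ≤ 𝐂[g].index → g ∈ H₁ := fun g hg h =>
    (hm g h).elim id fun h => hE2 ⟨hg, h⟩
  have hm2 : ∀ g ∈ E, 2 ^ m ≤ 𝐂[g].relIndex E → g ∈ H₁ ∨ g ∈ cm E := fun g hg h => by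
    refine or_iff_not_imp_right.2 fun hk => hm1 g hg ?_
    rw [index_eq_of_notMem_cm Nat.prime_two hE hg hk, pow_succ]
    exact Nat.mul_le_mul_right _ h
  rw [card_commutator Nat.prime_two hE]
  obtain ⟨k, hk⟩ := exists_relIndex_eq hG (cm E) E
  rw [hk, pow_le_pow_iff_right₀ one_lt_two] at hd
  rcases hd.lt_or_eq with hd | rfl
  · have h1 := (ihE (m + 1)).sub hE1 hE1 (Or.inr (Or.inl inf_le_right)) fun g hg h =>
      Or.inl (hm1 g hg (h.trans (relIndex_le_index _ _)))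
    rw [hk, mul_assoc, ← pow_succ, show tri (m + 2) = tri (m + 1) + (m + 1) from rfl,
      pow_add 2 (tri _)]
    exact Nat.mul_le_mul h1 (Nat.pow_le_pow_right two_pos hd)
  · have hEK : ¬ E ≤ cm E := fun h => by
      rw [relIndex_eq_one.2 h] at hk
      exact (Nat.one_lt_pow (Nat.succ_ne_zero m) one_lt_two).ne hk
    cases m with
    | zero =>
      obtain ⟨g, hg, hg1, hg2⟩ := exists_notMem_two hE1 hEK
      exact absurd (hm2 g hg (Nat.pos_of_ne_zero (by simp [relIndex, index_ne_zero_of_finite])))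
        (not_or.2 ⟨hg1, hg2⟩)
    | succ m =>
      have h1 := (ihE (m + 1)).sub hE1 hEK (Or.inr (Or.inr (by
        rw [hk]
        exact lt_of_lt_of_le (by norm_num)
          (Nat.pow_le_pow_right two_pos (show 2 ≤ m + 1 + 1 by omega))))) hm2
      rw [hk, mul_assoc, ← pow_succ,
        show tri (m + 1 + 2) = tri (m + 1) + ((m + 1) + (m + 2)) from add_assoc _ _ _,
        pow_add 2 (tri _)]
      exact Nat.mul_le_mul h1 (Nat.pow_le_pow_right two_pos (by omega))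

theorem q_all [hp : Fact p.Prime] : ∀ (G : Type u) [Group G] [Finite G], IsPGroup p G →
    ∀ n, Q p n G := by
  refine Core.induction_on_card fun G _ _ ih hG n H₀ H₂ h₀ h₂ h hB₀ => ?_
  by_cases hna : commutator G = ⊥
  · rw [hna, card_bot]
    exact Nat.one_le_pow _ _ hp.out.pos
  obtain ⟨H₁, _, h₁, h01⟩ := exists_normal_index_prime_ge hG h₀
  have hB : ∀ g : G, p ^ n ≤ 𝐂[g].index → g ∈ H₁ ∨ g ∈ H₂ := fun g hg =>
    (hB₀ g hg).imp_left fun h => h01 h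
  obtain ⟨C, a, hC, hC1, hC2, haC, ha1, ha2⟩ :=
    exists_choice hG hna h₁ h₂ (h.imp_right (Or.imp_left fun h => h.trans h01))
  have ha : ¬ p ^ n ≤ 𝐂[a].index := fun h => (hB a h).elim ha1 ha2
  cases n with
  | zero => exact absurd (Nat.pos_of_ne_zero index_ne_zero_of_finite) ha
  | succ m =>
  haveI := normal_of_index_eq_prime hG hC
  have hCt : C ≠ ⊤ := fun e => haC (e ▸ mem_top a)
  have hCp : IsPGroup p C := hG.to_subgroup C
  have ihC := ih C (Core.card_lt_of_ne_top C hCt) hCp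
  have hd := (relIndex_cm_le hp.out hC haC).trans (index_le_of_not_le hG ha)
  have hm1 : ∀ g ∈ C, p ^ (m + 1) ≤ 𝐂[g].index → g ∈ H₁ := fun g hg h =>
    (hB g h).elim id fun h => hC2 ⟨hg, h⟩
  have hm1' : ∀ g ∈ C, p ^ (m + 1) ≤ 𝐂[g].relIndex C → g ∈ H₁ := fun g hg h =>
    hm1 g hg (h.trans (relIndex_le_index _ _))
  have hm2 : ∀ g ∈ C, p ^ m ≤ 𝐂[g].relIndex C → g ∈ H₁ ∨ g ∈ cm C := fun g hg h => by
    refine or_iff_not_imp_right.2 fun hk => hm1 g hg ?_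
    rw [index_eq_of_notMem_cm hp.out hC hg hk, pow_succ]
    exact Nat.mul_le_mul_right _ h
  rw [card_commutator hp.out hC]
  by_cases hK : C ≤ cm C
  · rw [relIndex_eq_one.2 hK, mul_one]
    exact (ihC (m + 1)).sub hC1 hC1 (Or.inr (Or.inl inf_le_right)) fun g hg h =>
      Or.inl (hm1' g hg h)
  by_cases h3 : p ≠ 2 ∨ C ⊓ cm C ≤ H₁ ∨ 2 < (cm C).relIndex C
  · rw [tri, pow_add]
    exact Nat.mul_le_mul ((ihC m).sub hC1 hK h3 hm2) hd
  push Not at h3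
  obtain ⟨rfl, h4, h5⟩ := h3
  have h6 : (cm C).relIndex C = 2 := by
    have h7 : (cm C).relIndex C ≠ 1 := by rwa [Ne, relIndex_eq_one]
    have h8 : (cm C).relIndex C ≠ 0 := by simp [relIndex, index_ne_zero_of_finite]
    omega
  have h7 : H₁.relIndex C = 2 := by
    refine ((Nat.dvd_prime hp.out).1 (h₁ ▸ relIndex_dvd_index_of_normal H₁ C)).resolve_left ?_
    rwa [relIndex_eq_one]
  cases m with
  | zero => omega
  | succ m =>
  rw [h6, ← card_der]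
  exact two_step hCp (fun E hE => ih E ((Core.card_lt_of_ne_top E hE).trans
      (Core.card_lt_of_ne_top C hCt)) (hCp.to_subgroup E)) (H₁ := H₁.subgroupOf C)
    (H₂ := (cm C).subgroupOf C) h7 h6 (fun h => h4 fun g hg => h (x := ⟨g, hg.1⟩) hg.2)
    (fun g hg => hm2 g g.2 (cent_coe g ▸ hg)) fun g hg => hm1' g g.2 (cent_coe g ▸ hg)

end Cfsg.Agent.PGrp.Wieg
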